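/-
Helper library (helper25): Bender–Glauberman 14.11 (rows S1435, S1363) and the `𝒫₂` part of Theorem D
(row S1376).  The set-up and the intermediate lemmas, stated as `Prop`s so that each of them can be
derived independently of the others.
-/
import Cfsg.Agent.Lib.Helper34.BGRows

set_option autoImplicit false

namespace Cfsg.Agent.Lib.Helper25.P2

open Subgroup Cfsg
open Cfsg.Agent.Lib.Helper34.BGRows

universe u

/-- The rows of sections 14-15 that are used as hypotheses. -/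
structure Rows (G : Type u) [Group G] [Finite G] : Prop where
  h1352 : H1352 G
  h1353 : H1353 G
  h1354 : H1354 G
  h1364 : H1364 G
  h1366 : H1366 G
  h1367 : H1367 G
  h1368 : H1368 G
  h1369 : H1369 G
  h1430 : H1430 G
  h1431 : H1431 G
  h1432 : H1432 G

variable {G : Type u} [Group G]

/-- `M = K U M_σ` of type `𝒫₂` (`K ≠ 1`, `U ≠ 1`) with its partner `L = M*`. -/
structure Cfg (M K U L : Subgroup G) : Prop where
  hM : IsCoatom M
  hKU : IsSigmaDecomposition M K U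
  hK1 : K ≠ ⊥
  hU1 : U ≠ ⊥
  hL : IsCoatom L
  hKst : K = Cfsg.sigmaCore L ⊓ Subgroup.centralizer ((Cfsg.sigmaCore M ⊓ Subgroup.centralizer (K : Set G)) : Set G)
  hKstH : Cfsg.IsPiHallOf (Cfsg.kappa L) (Cfsg.sigmaCore M ⊓ Subgroup.centralizer (K : Set G)) L

theorem Cfg.hKst' {M K U L : Subgroup G} (c : Cfg M K U L) :
    K = sigmaCore L ⊓ centralizer ((sigmaCore M ⊓ centralizer (K : Set G) : Subgroup G) : Set G) :=
  c.hKst

/-- A maximal subgroup `H` containing `U K`, not conjugate to `M` or to `L`. -/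
structure HC (M K U L H : Subgroup G) : Prop extends Cfg M K U L where
  hH : IsCoatom H
  hUH : U ≤ H
  hKH : K ≤ H
  hnM : ∀ g : G, H ≠ M.map (MulAut.conj g).toMonoidHom
  hnL : ∀ g : G, H ≠ L.map (MulAut.conj g).toMonoidHom

variable (G)

/-- (A) basic facts on `M`. -/
def PA : Prop :=
  ∀ M K U L : Subgroup G, Cfg M K U L →
    (∀ r : ℕ, r.Prime → r ∣ Nat.card U → r ∉ sigma M ∧ r ∉ kappa M) ∧
    IsMulCommutative U ∧ Group.IsNilpotent (sigmaCore M) ∧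
    sigmaCore M ⊓ centralizer (U : Set G) = ⊥ ∧
    (∀ r : ℕ, r.Prime → ∀ R : Subgroup G, R ≤ U → R ≠ ⊥ → IsPGroup r R → ¬ r ∣ R.relIndex U →
      ¬ r ∣ R.relIndex M ∧ K ≤ normalizer (R : Set G))

/-- (B) `K`-regularity: a subgroup `K₀ ≤ K` of prime order acts regularly on `H'_σ` for every maximal
subgroup `H' ≥ K₀` that is not conjugate to `M` or `L`.  (`U ≠ 1` is not needed.) -/
def PB : Prop :=
  ∀ M K U L : Subgroup G, Cfg M K U L → ∀ K₀ H' : Subgroup G, K₀ ≤ K → (Nat.card K₀).Prime →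
    IsCoatom H' → K₀ ≤ H' → (∀ g : G, H' ≠ M.map (MulAut.conj g).toMonoidHom) →
    (∀ g : G, H' ≠ L.map (MulAut.conj g).toMonoidHom) →
    sigmaCore H' ⊓ centralizer (K₀ : Set G) = ⊥

/-- (C0) a conjugate of `L` meeting `K` is `L`; `U ≰ L`, more precisely `U ⊓ L = 1`; `N(K₀) ≤ L`. -/
def PC0 : Prop :=
  ∀ M K U L : Subgroup G, Cfg M K U L →
    (∀ g : G, K ⊓ L.map (MulAut.conj g).toMonoidHom ≠ ⊥ → L.map (MulAut.conj g).toMonoidHom = L) ∧
    U ⊓ L = ⊥ ∧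
    (∀ K₀ : Subgroup G, K₀ ≤ K → (Nat.card K₀).Prime → normalizer (K₀ : Set G) ≤ L) ∧
    (∀ p : ℕ, p.Prime → p ∣ Nat.card K → p ∈ sigma L)

/-- (C) the maximal subgroups over `N_G(R)` satisfy `HC`. -/
def PC : Prop :=
  ∀ M K U L : Subgroup G, Cfg M K U L → ∀ (r : ℕ) (R H : Subgroup G), r.Prime → R ≤ U → R ≠ ⊥ →
    IsPGroup r R → ¬ r ∣ R.relIndex U → IsCoatom H → normalizer (R : Set G) ≤ H → HC M K U L H

/-- (K) `κ(H) = ∅`, the primes of `K` are not in `σ(H)`, `σ(H)` is disjoint from `σ(M)`, `σ(L)`,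
`H_σ` is nilpotent and nontrivial. -/
def PK : Prop :=
  ∀ M K U L H : Subgroup G, HC M K U L H →
    kappa H = ∅ ∧ (∀ q ∈ sigma H, q ∉ sigma M ∧ q ∉ sigma L) ∧
    Group.IsNilpotent (sigmaCore H) ∧ sigmaCore H ≠ ⊥ ∧ sigmaCore H ⊓ L = ⊥

/-- (X) for `s ∈ τ₂(H)`, `B ∈ E_s²(E)`, `K₀ ≤ E` : `C_B(K₀) ≠ 1`. -/
def PX : Prop :=
  ∀ M K U L H : Subgroup G, HC M K U L H → ∀ E K₀ B : Subgroup G, IsComplIn E (sigmaCore H) H →
    K₀ ≤ K → (Nat.card K₀).Prime → K₀ ≤ E → ∀ s ∈ tau2 H, B ≤ E → IsElementaryAbelian s B →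
    Nat.card B = s ^ 2 → B ⊓ centralizer (K₀ : Set G) ≠ ⊥

/-- (D1) a Sylow `s`-subgroup `S` of `U` with `s ∉ σ(H)` centralizes `H_σ`, and `s ∈ τ₂(H)`. -/
def PD1 : Prop :=
  ∀ M K U L H : Subgroup G, HC M K U L H → ∀ (s : ℕ) (S : Subgroup G), s.Prime → s ∉ sigma H →
    S ≤ U → S ≠ ⊥ → IsPGroup s S → ¬ s ∣ S.relIndex U →
    sigmaCore H ≤ centralizer (S : Set G) ∧ s ∈ tau2 H

/-- (D2) the heart of `U ≤ H_σ`: if the Sylow `s`-subgroup `S` of `U` is cyclic, no element `x' ≠ 1`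
centralizes `K₀` and `S` and lies with `A₁ = Ω₁(S)` in an elementary abelian subgroup of order `s²`. -/
def PD2 : Prop :=
  ∀ M K U L : Subgroup G, Cfg M K U L → ∀ (s : ℕ) (S K₀ A₁ B : Subgroup G) (x' : G), s.Prime →
    S ≤ U → IsPGroup s S → ¬ s ∣ S.relIndex U → IsCyclic S → K₀ ≤ K → (Nat.card K₀).Prime →
    A₁ ≤ S → Nat.card A₁ = s → A₁ ≤ B → IsElementaryAbelian s B → Nat.card B = s ^ 2 →
    x' ∈ B → x' ≠ 1 → x' ∈ centralizer (K₀ : Set G) → x' ∈ centralizer (S : Set G) → False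

/-- (D) `U ≤ H_σ`. -/
def PD : Prop :=
  ∀ M K U L H : Subgroup G, HC M K U L H → U ≤ sigmaCore H

/-- (E) `M ∩ H = U K` and `N_H(U) ≰ M`. -/
def PE : Prop :=
  ∀ M K U L H : Subgroup G, HC M K U L H →
    M ⊓ H = U ⊔ K ∧ ¬ H ⊓ normalizer (U : Set G) ≤ M

/-- (F) for `t ∈ σ(M)` no elementary abelian subgroup of order `t²` of `M` is maximal among the
elementary abelian `t`-subgroups of `G`. -/
def PF : Prop :=
  ∀ M K U L : Subgroup G, Cfg M K U L → ∀ t ∈ sigma M, ∀ B : Subgroup G, B ≤ M →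
    IsElementaryAbelian t B → Nat.card B = t ^ 2 →
    ∃ B' : Subgroup G, IsElementaryAbelian t B' ∧ B ≤ B' ∧ B' ≠ B

/-- (G1) if `τ₂(H) ≠ ∅`, every complement `E ≥ K` of `H_σ` lies in `L`; moreover `τ₂(H) ⊆ σ(L)`. -/
def PG1 : Prop :=
  ∀ M K U L H : Subgroup G, HC M K U L H → ∀ E : Subgroup G, IsComplIn E (sigmaCore H) H → K ≤ E →
    ∀ t ∈ tau2 H, E ≤ L ∧ t ∈ sigma L

/-- (G2) if `τ₂(H) = ∅`, every complement `E ≥ K` of `H_σ` lies in `L`. -/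
def PG2 : Prop :=
  ∀ M K U L H : Subgroup G, HC M K U L H → ∀ E : Subgroup G, IsComplIn E (sigmaCore H) H → K ≤ E →
    tau2 H = ∅ → E ≤ L

/-- (I) `H ∩ L` is a complement of `H_σ` in `H` and `K ≤ F(H ∩ L)`. -/
def PI : Prop :=
  ∀ M K U L H : Subgroup G, HC M K U L H →
    K ≤ fittingOf (H ⊓ L) ∧ IsComplIn (H ⊓ L) (sigmaCore H) H

end Cfsg.Agent.Lib.Helper25.P2
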