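/-
Helper library (helper25): the `𝒫₂` part of Bender–Glauberman Theorem D (row S1376): set-up and
intermediate lemmas as `Prop`s.
-/
import Cfsg.Agent.Lib.Helper25.P2.Defs

set_option autoImplicit false

namespace Cfsg.Agent.Lib.Helper25.P2

open Subgroup Cfsg
open Cfsg.Agent.Lib.Helper34.BGRows

universe u

variable {G : Type u} [Group G]

/-- `HC M K U L H` together with `x ∈ H_σ`, `x ≠ 1`, `C_G(x) ≤ M`, `C_G(x) ≰ H`. -/
structure XC (M K U L H : Subgroup G) (x : G) : Prop extends HC M K U L H where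
  hx : x ∈ sigmaCore H
  hx1 : x ≠ 1
  hxM : centralizer ({x} : Set G) ≤ M
  hxH : ¬ centralizer ({x} : Set G) ≤ H

variable (G)

/-- (S) the set-up of S1376 gives an `HC`-configuration (`H` is the `M` of S1376, `M` its `N`). -/
def QS : Prop :=
  ∀ (H : Subgroup G) (x : G) (M : Subgroup G), IsCoatom H → x ∈ sigmaCore H → x ≠ 1 →
    ¬ centralizer ({x} : Set G) ≤ H → IsCoatom M → centralizer ({x} : Set G) ≤ M →
    (kappa M).Nonempty → ∃ K U L : Subgroup G, HC M K U L H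

/-- (P) powers: `x` may be replaced by any non-identity power. -/
def QP : Prop :=
  ∀ (M K U L H : Subgroup G) (x : G), XC M K U L H x → ∀ n : ℕ, x ^ n ≠ 1 → XC M K U L H (x ^ n)

/-- (T1) for `t ∈ τ₂(H)` all `t`-subgroups of `G` are abelian. -/
def QT1 : Prop :=
  ∀ (M K U L H : Subgroup G) (x : G), XC M K U L H x → ∀ t ∈ tau2 H, ∀ P : Subgroup G,
    IsPGroup t P → IsMulCommutative P

/-- (T2) for `t ∈ τ₂(H)`, `A ∈ E_t²(E)`: every nilpotent subgroup of `G` containing `A` lies in `E`. -/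
def QT2 : Prop :=
  ∀ (M K U L H : Subgroup G) (x : G), XC M K U L H x → ∀ t ∈ tau2 H, ∀ E A D : Subgroup G,
    IsComplIn E (sigmaCore H) H → A ≤ E → IsElementaryAbelian t A → Nat.card A = t ^ 2 →
    Group.IsNilpotent D → A ≤ D → D ≤ E

/-- (T3) `τ₂(H) = ∅` if `L_σ` is nilpotent. -/
def QT3 : Prop :=
  ∀ (M K U L H : Subgroup G) (x : G), XC M K U L H x → Group.IsNilpotent (sigmaCore L) →
    tau2 H = ∅

/-- (N) a statement on `L` alone: `Q` a normal Sylow `p`-subgroup of `L_σ`, `p = |K|`, `D` a complement,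
`Q ∩ C(D)` normal in `L`: if `D` centralizes `K` then `D` centralizes `Q`. -/
def QN : Prop :=
  ∀ M K U L : Subgroup G, Cfg M K U L → ∀ Q D : Subgroup G, (Nat.card K).Prime →
    IsPGroup (Nat.card K) Q → ¬ Nat.card K ∣ Q.relIndex (sigmaCore L) →
    L ≤ normalizer (Q : Set G) → IsComplIn Q D (sigmaCore L) →
    L ≤ normalizer ((Q ⊓ centralizer (D : Set G) : Subgroup G) : Set G) →
    K ≤ centralizer (D : Set G) → Q ≤ centralizer (D : Set G)

/-- (T4) `τ₂(H) = ∅` if `L_σ` is not nilpotent. -/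
def QT4 : Prop :=
  ∀ (M K U L H : Subgroup G) (x : G), XC M K U L H x → ¬ Group.IsNilpotent (sigmaCore L) →
    tau2 H = ∅

/-- (Ab) `H' ≤ H_σ`. -/
def QAb : Prop :=
  ∀ (M K U L H : Subgroup G) (x : G), XC M K U L H x → tau2 H = ∅ → ⁅H, H⁆ ≤ sigmaCore H

/-- (Fr) a maximal subgroup with `κ(H) = τ₂(H) = ∅` and `H' ≤ H_σ` is a Frobenius group with cyclic
complement. -/
def QFr : Prop :=
  ∀ H : Subgroup G, IsCoatom H → kappa H = ∅ → tau2 H = ∅ → ⁅H, H⁆ ≤ sigmaCore H →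
    ∃ E : Subgroup ↥H, IsFrobeniusComplement E ∧ IsCyclic E

/-- (TI) `H_F` is not a TI-subset. -/
def QTI : Prop :=
  ∀ (H : Subgroup G) (x : G), IsCoatom H → x ∈ sigmaCore H → x ≠ 1 →
    ¬ centralizer ({x} : Set G) ≤ H → Group.IsNilpotent (sigmaCore H) →
    ¬ IsTISubset (fittingHallOf H : Set G)

end Cfsg.Agent.Lib.Helper25.P2
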