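/-
Helper library (helper25): rows S1435 and S1363 from the lemmas of `P2/Defs`.
-/
import Cfsg.Agent.Lib.Helper25.P2.Defs
import Cfsg.Agent.Lib.Helper34.SylowIn
import Cfsg.Agent.Lib.Helper24.BGBase

set_option autoImplicit false

namespace Cfsg.Agent.Lib.Helper25.P2

open Subgroup Cfsg
open Cfsg.Agent.Lib.Helper34.BGRows
open Cfsg.Agent.Lib.Helper34 Cfsg.Agent.Lib.Helper24

universe u

variable {G : Type u} [Group G] [Finite G]

/-- A Sylow subgroup of `U` for a prime dividing `|U|` is nontrivial. -/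
theorem sylow_map_ne_bot25 {U : Subgroup G} {r : ℕ} [hr : Fact r.Prime] (hd : r ∣ Nat.card U)
    (R : Sylow r U) : (R : Subgroup U).map U.subtype ≠ ⊥ := by
  intro h
  have h1 : (R : Subgroup U) = ⊥ := by
    rw [Subgroup.map_eq_bot_iff, Subgroup.ker_subtype] at h
    exact le_bot_iff.1 h
  have h2 := R.not_dvd_index
  rw [h1, Subgroup.index_bot] at h2
  exact h2 hd

theorem row1435 (hC : PC G) (hK : PK G) (hD : PD G) (hE : PE G) (hI : PI G) : H1435 G := by
  intro M hM K U hKU hK1 hU1 L hL hKst hKstH r _ hr R H hH hNR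
  have c : Cfg M K U L := ⟨hM, hKU, hK1, hU1, hL, hKst, hKstH⟩
  have hR := Sylow.isSylowIn_map R
  have h : HC M K U L H := hC M K U L c r _ H (Fact.out) hR.1 (sylow_map_ne_bot25 hr R) hR.2.1
    hR.2.2 hH hNR
  exact ⟨(hK M K U L H h).1, hD M K U L H h, (hE M K U L H h).1, (hE M K U L H h).2,
    (hI M K U L H h).1, (hI M K U L H h).2⟩

theorem row1363 (hG : IsMinSimpleOddOrder G) (R : Rows G) (hA : PA G) (hC : PC G) (hE : PE G) :
    H1363 G := by
  intro M hM K U hKU hK1
  by_cases hU1 : U = ⊥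
  · subst hU1
    refine ⟨⟨⟨fun a b => Subsingleton.elim _ _⟩⟩, ?_⟩
    intro h
    apply hM.1
    rw [eq_top_iff]
    refine le_trans ?_ h
    intro x _
    rw [Subgroup.mem_normalizer_iff]
    intro y
    simp only [SetLike.mem_coe, Subgroup.mem_bot]
    constructor
    · rintro rfl; simp
    · intro h1
      have : y = x⁻¹ * (x * y * x⁻¹) * x := by group
      rw [this, h1]; group
  · obtain ⟨L, ⟨hL, hKst, hKstH⟩, -⟩ := R.h1366 M hM K U hKU hK1
    have c : Cfg M K U L := ⟨hM, hKU, hK1, hU1, hL, hKst, hKstH⟩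
    refine ⟨(hA M K U L c).2.1, ?_⟩
    have hcard : Nat.card U ≠ 1 := fun h => hU1 ((Subgroup.card_eq_one).1 h)
    obtain ⟨r, hr, hrd⟩ := Nat.exists_prime_and_dvd hcard
    haveI : Fact r.Prime := ⟨hr⟩
    let R₀ : Sylow r U := default
    have hR := Sylow.isSylowIn_map R₀
    have hR1 := sylow_map_ne_bot25 hrd R₀
    obtain ⟨H, hH, hNH⟩ := exists_coatom_ge
      (MS_normalizer_ne_top hG hR1 (MS_isPGroup_ne_top hG hR.2.1))
    have h : HC M K U L H := hC M K U L c r _ H hr hR.1 hR1 hR.2.1 hR.2.2 hH hNH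
    intro hle
    exact (hE M K U L H h).2 (inf_le_right.trans hle)

end Cfsg.Agent.Lib.Helper25.P2
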