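/-
Helper library (helper25): row S1376 from the lemmas of `P2/Defs2`.
-/
import Cfsg.Agent.Lib.Helper25.P2.Defs2

set_option autoImplicit false

namespace Cfsg.Agent.Lib.Helper25.P2

open Subgroup Cfsg
open Cfsg.Agent.Lib.Helper34.BGRows

universe u

variable {G : Type u} [Group G] [Finite G]

theorem row1376 (hK : PK G) (hS : QS G) (hT3 : QT3 G) (hT4 : QT4 G) (hAb : QAb G) (hFr : QFr G)
    (hTI : QTI G) : H1376 G := by
  intro H hH x hx hx1 hxH M hM hxM hκ
  obtain ⟨K, U, L, h⟩ := hS H x M hH hx hx1 hxH hM hxM hκ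
  have hX : XC M K U L H x := ⟨h, hx, hx1, hxM, hxH⟩
  obtain ⟨hκH, -, hnil, -, -⟩ := hK M K U L H h
  have hτ : tau2 H = ∅ := by
    by_cases hn : Group.IsNilpotent (sigmaCore L)
    · exact hT3 M K U L H x hX hn
    · exact hT4 M K U L H x hX hn
  exact ⟨hκH, hFr H hH hκH hτ (hAb M K U L H x hX hτ), hTI H x hH hx hx1 hxH hnil⟩

end Cfsg.Agent.Lib.Helper25.P2
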